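import Cfsg.Agent.Lib.Helper21.OAsch.Defs2

set_option autoImplicit false

namespace Cfsg.Agent.Lib.Helper35.OAsch

open Cfsg Cfsg.Geo Matrix Cfsg.Agent.Lib.Helper13.Asch Cfsg.Agent.Lib.Helper21.Asch
  Cfsg.Agent.Lib.Helper21.OAsch
open scoped Kronecker MatrixGroups

variable {ι : Type} [Fintype ι] [DecidableEq ι] {F : Type*} [Field F]
variable {Q : (ι → F) → F} {G : Matrix ι ι F}

theorem Gp_eq {κ : Type} [Fintype κ] [DecidableEq κ] (e : ι ≃ κ) (P : GL ι F) (G : Matrix ι ι F) :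
    Gp e P G = ((P : Matrix ι ι F)ᵀ * G * (P : Matrix ι ι F)).submatrix e.symm e.symm := rfl

theorem R_eq {κ : Type} [Fintype κ] [DecidableEq κ] (e : ι ≃ κ) (S : Matrix κ κ F) :
    Matrix.reindex e.symm e.symm S = S.submatrix e e := rfl

theorem Gp_facts (hO : OData Q G) {κ : Type} [Fintype κ] [DecidableEq κ] (e : ι ≃ κ) (P : GL ι F) :
    (Gp e P G)ᵀ = Gp e P G ∧ IsUnit (Gp e P G).det := by
  constructor
  · rw [Gp_eq, Matrix.transpose_submatrix, Matrix.transpose_mul, Matrix.transpose_mul,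
      Matrix.transpose_transpose, hO.symm, mul_assoc]
  · rw [Gp_eq, Matrix.det_submatrix_equiv_self, Matrix.det_mul, Matrix.det_mul,
      Matrix.det_transpose]
    have hP : IsUnit (P : Matrix ι ι F).det := by
      have := (Matrix.isUnit_iff_isUnit_det (P : Matrix ι ι F)).1 P.isUnit
      exact this
    exact (hP.mul hO.unit).mul hP

end Cfsg.Agent.Lib.Helper35.OAsch
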