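import Cfsg.Agent.Lib.Helper21.OAsch.Defs2

set_option autoImplicit false

namespace Cfsg.Agent.Lib.Helper35.OAsch

open Cfsg Cfsg.Geo Matrix Cfsg.Agent.Lib.Helper13.Asch Cfsg.Agent.Lib.Helper21.Asch
  Cfsg.Agent.Lib.Helper21.OAsch
open scoped Kronecker MatrixGroups

variable {ι : Type} [Fintype ι] [DecidableEq ι] {F : Type*} [Field F]
variable {Q : (ι → F) → F} {G : Matrix ι ι F}

theorem exists_entry_ne_zero {κ : Type} [Fintype κ] [DecidableEq κ] [Nonempty κ] (g : GL κ F) :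
    ∃ i j, (g : Matrix κ κ F) i j ≠ 0 := by
  by_contra hcon
  push Not at hcon
  have h0 : (g : Matrix κ κ F) = 0 := by ext i j; exact hcon i j
  have e4 : (g : Matrix κ κ F) * ((g⁻¹ : GL κ F) : Matrix κ κ F) = 1 := by
    rw [← Units.val_mul, mul_inv_cancel, Units.val_one]
  rw [h0, zero_mul] at e4
  obtain ⟨i⟩ := ‹Nonempty κ›
  have := congrFun (congrFun e4 i) i
  simp at this

/-- TT2 (with the extra hypothesis `Odd b`: the statement is false for `b = 0`) -/
theorem kron_symm {a b : ℕ} (ha : Odd a) (hb : Odd b) (G₁ : GL (Fin a) F) (G₂ : GL (Fin b) F)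
    (hs : ((G₁ : Matrix (Fin a) (Fin a) F) ⊗ₖ (G₂ : Matrix (Fin b) (Fin b) F))ᵀ =
      (G₁ : Matrix (Fin a) (Fin a) F) ⊗ₖ (G₂ : Matrix (Fin b) (Fin b) F)) :
    (G₁ : Matrix (Fin a) (Fin a) F)ᵀ = G₁ ∧ (G₂ : Matrix (Fin b) (Fin b) F)ᵀ = G₂ := by
  have : Nonempty (Fin a) := ⟨⟨0, ha.pos⟩⟩
  have : Nonempty (Fin b) := ⟨⟨0, hb.pos⟩⟩
  have hE : ∀ i i' j j', (G₁ : Matrix (Fin a) (Fin a) F) i' i * (G₂ : Matrix (Fin b) (Fin b) F) j' j
      = (G₁ : Matrix (Fin a) (Fin a) F) i i' * (G₂ : Matrix (Fin b) (Fin b) F) j j' := by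
    intro i i' j j'
    have := congrFun (congrFun hs (i, j)) (i', j')
    simpa [Matrix.transpose_apply, Matrix.kroneckerMap_apply] using this
  obtain ⟨j0, j0', hw⟩ := exists_entry_ne_zero G₂
  obtain ⟨i0, i0', hu⟩ := exists_entry_ne_zero G₁
  have hw' : (G₂ : Matrix (Fin b) (Fin b) F) j0' j0 ≠ 0 := by
    intro h
    have := hE i0 i0' j0 j0'
    rw [h, mul_zero] at this
    exact (mul_ne_zero hu hw) this.symm
  obtain ⟨ε, hε⟩ : ∃ ε : F, ε = (G₂ : Matrix (Fin b) (Fin b) F) j0 j0' /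
    (G₂ : Matrix (Fin b) (Fin b) F) j0' j0 := ⟨_, rfl⟩
  have h1 : ∀ i i', (G₁ : Matrix (Fin a) (Fin a) F) i' i = ε * (G₁ : Matrix (Fin a) (Fin a) F) i i' := by
    intro i i'
    have := hE i i' j0 j0'
    rw [hε]
    field_simp
    linear_combination this
  have hε2 : ε ^ 2 = 1 := by
    have h2 := h1 i0 i0'
    have h3 := h1 i0' i0
    rw [h2] at h3
    have : (ε ^ 2 - 1) * (G₁ : Matrix (Fin a) (Fin a) F) i0 i0' = 0 := by linear_combination -h3
    rcases mul_eq_zero.1 this with h | h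
    · linear_combination h
    · exact absurd h hu
  have hT : (G₁ : Matrix (Fin a) (Fin a) F)ᵀ = ε • (G₁ : Matrix (Fin a) (Fin a) F) := by
    ext i i'
    rw [Matrix.transpose_apply, Matrix.smul_apply, smul_eq_mul]
    exact h1 i i'
  have hdet : (G₁ : Matrix (Fin a) (Fin a) F).det ≠ 0 := by
    have := (Matrix.GeneralLinearGroup.det G₁).ne_zero
    simpa using this
  have hεa : ε ^ a = 1 := by
    have := congrArg Matrix.det hT
    rw [Matrix.det_transpose, Matrix.det_smul, Fintype.card_fin] at this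
    have h4 : (ε ^ a - 1) * (G₁ : Matrix (Fin a) (Fin a) F).det = 0 := by linear_combination -this
    rcases mul_eq_zero.1 h4 with h | h
    · linear_combination h
    · exact absurd h hdet
  have hε1 : ε = 1 := by
    obtain ⟨k, hk⟩ := ha
    rw [hk, pow_succ, pow_mul, hε2, one_pow, one_mul] at hεa
    exact hεa
  have hsym : ∀ i i', (G₁ : Matrix (Fin a) (Fin a) F) i' i = (G₁ : Matrix (Fin a) (Fin a) F) i i' := by
    intro i i'; rw [h1 i i', hε1, one_mul]
  refine ⟨by ext i i'; exact hsym i i', ?_⟩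
  ext j j'
  rw [Matrix.transpose_apply]
  have := hE i0 i0' j j'
  rw [hsym i0 i0'] at this
  exact mul_left_cancel₀ hu this

end Cfsg.Agent.Lib.Helper35.OAsch
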