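import Cfsg.Agent.Lib.Helper21.OAsch.Defs2
import Cfsg.Agent.Lib.Helper35.Asch.L7a

set_option autoImplicit false

namespace Cfsg.Agent.Lib.Helper35.OAsch

open Cfsg Cfsg.Geo Matrix Cfsg.Agent.Lib.Helper13.Asch Cfsg.Agent.Lib.Helper21.Asch
  Cfsg.Agent.Lib.Helper21.OAsch
open scoped Kronecker MatrixGroups

variable {ι : Type} [Fintype ι] [DecidableEq ι] {F : Type*} [Field F]
variable {Q : (ι → F) → F} {G : Matrix ι ι F}

theorem Gp_two {a : ℕ} (e : ι ≃ Fin a × Fin a) (P : GL ι F) (G₁ G₂ : GL (Fin a) F)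
    (hG : Gp e P G = (G₁ : Matrix (Fin a) (Fin a) F) ⊗ₖ (G₂ : Matrix (Fin a) (Fin a) F)) :
    Gp (e.trans (finTwoArrowEquiv (Fin a)).symm) P G =
      pureT (fun i => ((![G₁, G₂] : Fin 2 → GL (Fin a) F) i : Matrix (Fin a) (Fin a) F)) ∧
    tensorProductSubgroup a a e P ≤
      tensorWreathSubgroup a 2 (e.trans (finTwoArrowEquiv (Fin a)).symm) P := by
  constructor
  · ext x y
    have h := congrFun (congrFun hG (x 0, x 1)) (y 0, y 1)
    rw [pureT_apply, Fin.prod_univ_two]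
    rw [Matrix.kroneckerMap_apply] at h
    exact h
  · intro h hh
    rw [Cfsg.Agent.Lib.Helper35.Asch.mem_tensor_iff] at hh
    obtain ⟨x, y, hxy⟩ := hh
    refine ⟨_, ⟨glReindex (finTwoArrowEquiv (Fin a)).symm
      (Cfsg.Agent.Lib.Helper35.Asch.kronGL x y), ?_, rfl⟩, ?_⟩
    · apply Subgroup.subset_closure
      left
      refine ⟨![x, y], ?_⟩
      intro u v
      rw [Fin.prod_univ_two]
      rfl
    · apply Units.ext
      rw [hxy]
      rfl

end Cfsg.Agent.Lib.Helper35.OAsch
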