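import Cfsg.Agent.Lib.Helper35.OAsch.TB1
import Cfsg.Agent.Lib.Helper35.Asch.L6
import Cfsg.Agent.Lib.Helper69.OAsch.O8

set_option autoImplicit false

namespace Cfsg.Agent.Lib.Helper35.OAsch

open Cfsg Cfsg.Geo Matrix Cfsg.Agent.Lib.Helper13.Asch Cfsg.Agent.Lib.Helper21.Asch
  Cfsg.Agent.Lib.Helper21.OAsch
open scoped Kronecker MatrixGroups

variable {ι : Type} [Fintype ι] [DecidableEq ι] {F : Type*} [Field F]
variable {Q : (ι → F) → F} {G : Matrix ι ι F}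

theorem conj_inj (P : GL ι F) {X Y : Matrix ι ι F}
    (h : (P : Matrix ι ι F) * X * ((P⁻¹ : GL ι F) : Matrix ι ι F) =
      (P : Matrix ι ι F) * Y * ((P⁻¹ : GL ι F) : Matrix ι ι F)) : X = Y := by
  have e2 : ((P⁻¹ : GL ι F) : Matrix ι ι F) * (P : Matrix ι ι F) = 1 := by
    rw [← Units.val_mul, inv_mul_cancel, Units.val_one]
  calc X = (((P⁻¹ : GL ι F) : Matrix ι ι F) * (P : Matrix ι ι F)) * X *
        (((P⁻¹ : GL ι F) : Matrix ι ι F) * (P : Matrix ι ι F)) := by rw [e2, one_mul, mul_one]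
    _ = ((P⁻¹ : GL ι F) : Matrix ι ι F) * ((P : Matrix ι ι F) * X *
        ((P⁻¹ : GL ι F) : Matrix ι ι F)) * (P : Matrix ι ι F) := by simp only [mul_assoc]
    _ = ((P⁻¹ : GL ι F) : Matrix ι ι F) * ((P : Matrix ι ι F) * Y *
        ((P⁻¹ : GL ι F) : Matrix ι ι F)) * (P : Matrix ι ι F) := by rw [h]
    _ = (((P⁻¹ : GL ι F) : Matrix ι ι F) * (P : Matrix ι ι F)) * Y *
        (((P⁻¹ : GL ι F) : Matrix ι ι F) * (P : Matrix ι ι F)) := by simp only [mul_assoc]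
    _ = Y := by rw [e2, one_mul, mul_one]

theorem gram_kron (hO : OData Q G) {a b : ℕ} (e : ι ≃ Fin a × Fin b) (P : GL ι F)
    (N : Subgroup (GL ι F)) (hN : Iso G N) (henv : ∀ x, x ∈ env N ↔ ∃ X, x = embL e P X) :
    ∃ (G₁ : GL (Fin a) F) (G₂ : GL (Fin b) F), Gp e P G =
      (G₁ : Matrix (Fin a) (Fin a) F) ⊗ₖ (G₂ : Matrix (Fin b) (Fin b) F) := by
  obtain ⟨Γ, hΓ⟩ : ∃ Γ, Γ = Gp e P G := ⟨_, rfl⟩
  have hu : IsUnit Γ.det := by rw [hΓ]; exact (Gp_facts hO e P).2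
  let g : GL (Fin a × Fin b) F := ⟨Γ⁻¹, Γ, Matrix.nonsing_inv_mul Γ hu, Matrix.mul_nonsing_inv Γ hu⟩
  obtain ⟨h, hh⟩ : ∃ h : GL ι F, h = P * glReindex e.symm g * P⁻¹ := ⟨_, rfl⟩
  have e2 : ((P⁻¹ : GL ι F) : Matrix ι ι F) * (P : Matrix ι ι F) = 1 := by
    rw [← Units.val_mul, inv_mul_cancel, Units.val_one]
  have hm : (h : Matrix ι ι F) = (P : Matrix ι ι F) * Matrix.reindex e.symm e.symm Γ⁻¹ *
      ((P⁻¹ : GL ι F) : Matrix ι ι F) := by rw [hh]; rfl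
  have hmi : ((h⁻¹ : GL ι F) : Matrix ι ι F) = (P : Matrix ι ι F) * Matrix.reindex e.symm e.symm Γ *
      ((P⁻¹ : GL ι F) : Matrix ι ι F) := by
    have : h⁻¹ = P * glReindex e.symm g⁻¹ * P⁻¹ := by rw [hh, map_inv]; group
    rw [this]; rfl
  have hmem : h ∈ tensorProductSubgroup a b e P := by
    apply Cfsg.Agent.Lib.Helper35.Asch.mem_tensorProductSubgroup
    intro X
    have h1 : embL e P Xᵀ ∈ env N := (henv _).2 ⟨_, rfl⟩
    have h2 := (Cfsg.Agent.Lib.Helper69.OAsch.adj_mem_cen hO N hN).1 _ h1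
    obtain ⟨Y, hY⟩ := (henv _).1 h2
    refine ⟨Y, ?_⟩
    rw [← hY, embL, embL, adj_conj hO, ← hΓ, hm, hmi]
    have h3 : (Xᵀ ⊗ₖ (1 : Matrix (Fin b) (Fin b) F))ᵀ = X ⊗ₖ (1 : Matrix (Fin b) (Fin b) F) := by
      rw [← Matrix.kroneckerMap_transpose, Matrix.transpose_transpose, Matrix.transpose_one]
    rw [h3, R_eq, R_eq, R_eq, R_eq, ← Matrix.submatrix_mul_equiv _ _ e e e,
      ← Matrix.submatrix_mul_equiv _ _ e e e]
    generalize (Γ⁻¹).submatrix e e = U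
    generalize Γ.submatrix e e = V
    generalize (X ⊗ₖ (1 : Matrix (Fin b) (Fin b) F)).submatrix e e = W
    calc (P : Matrix ι ι F) * U * ((P⁻¹ : GL ι F) : Matrix ι ι F) *
          ((P : Matrix ι ι F) * W * ((P⁻¹ : GL ι F) : Matrix ι ι F)) *
          ((P : Matrix ι ι F) * V * ((P⁻¹ : GL ι F) : Matrix ι ι F))
        = (P : Matrix ι ι F) * U * (((P⁻¹ : GL ι F) : Matrix ι ι F) * (P : Matrix ι ι F)) * W *
          (((P⁻¹ : GL ι F) : Matrix ι ι F) * (P : Matrix ι ι F)) * V *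
          ((P⁻¹ : GL ι F) : Matrix ι ι F) := by simp only [mul_assoc]
      _ = _ := by rw [e2, mul_one, mul_one]; simp only [mul_assoc]
  rw [Cfsg.Agent.Lib.Helper35.Asch.mem_tensor_iff] at hmem
  obtain ⟨A, B, hAB⟩ := hmem
  rw [hm] at hAB
  have h4 := (Matrix.reindex e.symm e.symm).injective (conj_inj P hAB)
  refine ⟨A⁻¹, B⁻¹, ?_⟩
  rw [← hΓ, ← Matrix.nonsing_inv_nonsing_inv Γ hu, h4]
  apply Matrix.inv_eq_right_inv
  rw [← Matrix.mul_kronecker_mul, ← Units.val_mul, ← Units.val_mul, mul_inv_cancel, mul_inv_cancel,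
    Units.val_one, Units.val_one, Matrix.one_kronecker_one]

end Cfsg.Agent.Lib.Helper35.OAsch
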