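import Cfsg.Agent.Lib.Helper35.OAsch.TB4
import Cfsg.Agent.Lib.Helper35.OAsch.TT1
import Cfsg.Agent.Lib.Helper35.OAsch.TT2

set_option autoImplicit false

namespace Cfsg.Agent.Lib.Helper35.OAsch

open Cfsg Cfsg.Geo Matrix Cfsg.Agent.Lib.Helper13.Asch Cfsg.Agent.Lib.Helper21.Asch
  Cfsg.Agent.Lib.Helper21.OAsch
open scoped Kronecker MatrixGroups

variable {ι : Type} [Fintype ι] [DecidableEq ι] {F : Type*} [Field F]
variable {Q : (ι → F) → F} {G : Matrix ι ι F}

/-- `X ↦ X ⊗ 1` as a homomorphism of general linear groups -/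
def kronHom (a b : ℕ) (F : Type*) [Field F] : GL (Fin a) F →* GL (Fin a × Fin b) F where
  toFun X := Cfsg.Agent.Lib.Helper35.Asch.kronGL X 1
  map_one' := by
    apply Units.ext
    show ((1 : GL (Fin a) F) : Matrix (Fin a) (Fin a) F) ⊗ₖ ((1 : GL (Fin b) F) : Matrix (Fin b) (Fin b) F) = 1
    rw [Units.val_one, Units.val_one, Matrix.one_kronecker_one]
  map_mul' X Y := by
    apply Units.ext
    show ((X * Y : GL (Fin a) F) : Matrix (Fin a) (Fin a) F) ⊗ₖ ((1 : GL (Fin b) F) : Matrix (Fin b) (Fin b) F) =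
      ((X : Matrix (Fin a) (Fin a) F) ⊗ₖ ((1 : GL (Fin b) F) : Matrix (Fin b) (Fin b) F)) *
        ((Y : Matrix (Fin a) (Fin a) F) ⊗ₖ ((1 : GL (Fin b) F) : Matrix (Fin b) (Fin b) F))
    rw [← Matrix.mul_kronecker_mul, Units.val_mul, Units.val_one, mul_one]

/-- `X ↦ P (X ⊗ 1) P⁻¹` -/
def embHom {a b : ℕ} (e : ι ≃ Fin a × Fin b) (P : GL ι F) : GL (Fin a) F →* GL ι F :=
  (MulAut.conj P).toMonoidHom.comp ((glReindex e.symm).toMonoidHom.comp (kronHom a b F))

theorem embHom_coe {a b : ℕ} (e : ι ≃ Fin a × Fin b) (P : GL ι F) (X : GL (Fin a) F) :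
    ((embHom e P X : GL ι F) : Matrix ι ι F) = embL e P (X : Matrix (Fin a) (Fin a) F) := rfl

theorem embL_inj {a b : ℕ} (e : ι ≃ Fin a × Fin b) (P : GL ι F) (k0 : Fin b)
    {X Y : Matrix (Fin a) (Fin a) F} (h : embL e P X = embL e P Y) : X = Y :=
  Cfsg.Agent.Lib.Helper35.Asch.kron_one_injective k0
    ((Matrix.reindex e.symm e.symm).injective (conj_inj P h))

theorem embL_mul {a b : ℕ} (e : ι ≃ Fin a × Fin b) (P : GL ι F) (X Y : Matrix (Fin a) (Fin a) F) :
    embL e P (X * Y) = embL e P X * embL e P Y := by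
  have e2 : ((P⁻¹ : GL ι F) : Matrix ι ι F) * (P : Matrix ι ι F) = 1 := by
    rw [← Units.val_mul, inv_mul_cancel, Units.val_one]
  have h1 : (X * Y) ⊗ₖ (1 : Matrix (Fin b) (Fin b) F) =
      (X ⊗ₖ (1 : Matrix (Fin b) (Fin b) F)) * (Y ⊗ₖ (1 : Matrix (Fin b) (Fin b) F)) := by
    rw [← Matrix.mul_kronecker_mul, mul_one]
  simp only [embL]
  rw [h1, R_eq, R_eq, R_eq, ← Matrix.submatrix_mul_equiv _ _ e e e]
  generalize (X ⊗ₖ (1 : Matrix (Fin b) (Fin b) F)).submatrix e e = U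
  generalize (Y ⊗ₖ (1 : Matrix (Fin b) (Fin b) F)).submatrix e e = V
  calc (P : Matrix ι ι F) * (U * V) * ((P⁻¹ : GL ι F) : Matrix ι ι F)
      = (P : Matrix ι ι F) * U * 1 * V * ((P⁻¹ : GL ι F) : Matrix ι ι F) := by
        rw [mul_one]; simp only [mul_assoc]
    _ = _ := by rw [← e2]; simp only [mul_assoc]

theorem embL_one {a b : ℕ} (e : ι ≃ Fin a × Fin b) (P : GL ι F) :
    embL e P (1 : Matrix (Fin a) (Fin a) F) = 1 := by
  have := embHom_coe e P (1 : GL (Fin a) F)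
  rw [map_one, Units.val_one, Units.val_one] at this
  exact this.symm

theorem factor_group_T {a b : ℕ} (e : ι ≃ Fin a × Fin b) (P : GL ι F)
    (N : Subgroup (GL ι F)) (hN : Iso G N) (hperf : ⁅N, N⁆ = N) (hne : N ≠ ⊥)
    (hemb : ∀ x ∈ N, ∃ X, (x : Matrix ι ι F) = embL e P X)
    (G₁ : GL (Fin a) F) (G₂ : GL (Fin b) F)
    (hG : Gp e P G = (G₁ : Matrix (Fin a) (Fin a) F) ⊗ₖ (G₂ : Matrix (Fin b) (Fin b) F)) :
    ∃ S : Subgroup (GL (Fin a) F), ⁅S, S⁆ = S ∧ S ≠ ⊥ ∧ ∀ x ∈ S,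
      (x : Matrix (Fin a) (Fin a) F)ᵀ * (G₁ : Matrix (Fin a) (Fin a) F) *
        (x : Matrix (Fin a) (Fin a) F) = G₁ := by
  -- `ι` is nonempty
  have hι : Nonempty ι := by
    by_contra hc
    rw [not_nonempty_iff] at hc
    apply hne
    rw [eq_bot_iff]
    intro x _
    rw [Subgroup.mem_bot]
    apply Units.ext
    ext i
    exact (hc.false i).elim
  obtain ⟨i0⟩ := hι
  have k0 : Fin b := (e i0).2
  have : Nonempty (Fin b) := ⟨k0⟩
  have hinj : Function.Injective (embHom e P : GL (Fin a) F →* GL ι F) := by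
    intro X Y hXY
    apply Units.ext
    apply embL_inj e P k0
    rw [← embHom_coe, ← embHom_coe, hXY]
  have hrange : N ≤ (embHom e P : GL (Fin a) F →* GL ι F).range := by
    intro x hx
    obtain ⟨X, hX⟩ := hemb x hx
    obtain ⟨X', hX'⟩ := hemb x⁻¹ (N.inv_mem hx)
    have h1 : X * X' = 1 := by
      apply embL_inj e P k0
      rw [embL_mul, ← hX, ← hX', ← Units.val_mul, mul_inv_cancel, Units.val_one, embL_one]
    have h2 : X' * X = 1 := by
      apply embL_inj e P k0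
      rw [embL_mul, ← hX, ← hX', ← Units.val_mul, inv_mul_cancel, Units.val_one, embL_one]
    refine ⟨⟨X, X', h1, h2⟩, ?_⟩
    apply Units.ext
    rw [embHom_coe, hX]
  have hmap : (N.comap (embHom e P)).map (embHom e P) = N := Subgroup.map_comap_eq_self hrange
  refine ⟨N.comap (embHom e P), ?_, ?_, ?_⟩
  · apply Subgroup.map_injective hinj
    rw [Subgroup.map_commutator, hmap, hperf]
  · intro h
    rw [h, Subgroup.map_bot] at hmap
    exact hne hmap.symm
  · intro X hX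
    have h1 := Gp_iso e P (embHom e P X) (hN _ hX)
      ((X : Matrix (Fin a) (Fin a) F) ⊗ₖ (1 : Matrix (Fin b) (Fin b) F)) (embHom_coe e P X)
    rw [hG, ← Matrix.kroneckerMap_transpose, Matrix.transpose_one, ← Matrix.mul_kronecker_mul,
      ← Matrix.mul_kronecker_mul, one_mul, mul_one] at h1
    obtain ⟨j, j', hj⟩ := exists_entry_ne_zero G₂
    ext i i'
    have h2 := congrFun (congrFun h1 (i, j)) (i', j')
    rw [Matrix.kroneckerMap_apply, Matrix.kroneckerMap_apply] at h2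
    exact mul_right_cancel₀ hj h2

end Cfsg.Agent.Lib.Helper35.OAsch
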