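import Cfsg.Agent.Lib.Helper35.OAsch.TB3

set_option autoImplicit false

namespace Cfsg.Agent.Lib.Helper35.OAsch

open Cfsg Cfsg.Geo Matrix Cfsg.Agent.Lib.Helper13.Asch Cfsg.Agent.Lib.Helper21.Asch
  Cfsg.Agent.Lib.Helper21.OAsch
open scoped Kronecker MatrixGroups

variable {ι : Type} [Fintype ι] [DecidableEq ι] {F : Type*} [Field F]
variable {Q : (ι → F) → F} {G : Matrix ι ι F}

theorem adj_conj (hO : OData Q G) {κ : Type} [Fintype κ] [DecidableEq κ] (e : ι ≃ κ) (P : GL ι F)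
    (S : Matrix κ κ F) :
    adj G ((P : Matrix ι ι F) * Matrix.reindex e.symm e.symm S * ((P⁻¹ : GL ι F) : Matrix ι ι F)) =
      (P : Matrix ι ι F) * Matrix.reindex e.symm e.symm ((Gp e P G)⁻¹ * Sᵀ * Gp e P G) *
        ((P⁻¹ : GL ι F) : Matrix ι ι F) := by
  obtain ⟨Pm, hPm⟩ : ∃ Pm : Matrix ι ι F, Pm = (P : Matrix ι ι F) := ⟨_, rfl⟩
  obtain ⟨Pi, hPi⟩ : ∃ Pi : Matrix ι ι F, Pi = ((P⁻¹ : GL ι F) : Matrix ι ι F) := ⟨_, rfl⟩
  have e1 : Pm * Pi = 1 := by rw [hPm, hPi, ← Units.val_mul, mul_inv_cancel, Units.val_one]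
  have e2 : Pi * Pm = 1 := by rw [hPm, hPi, ← Units.val_mul, inv_mul_cancel, Units.val_one]
  have e1t : Piᵀ * Pmᵀ = 1 := by rw [← Matrix.transpose_mul, e1, Matrix.transpose_one]
  have e2t : Pmᵀ * Piᵀ = 1 := by rw [← Matrix.transpose_mul, e2, Matrix.transpose_one]
  have hGi : G * G⁻¹ = 1 := Matrix.mul_nonsing_inv G hO.unit
  have hMinv : (Pmᵀ * G * Pm)⁻¹ = Pi * G⁻¹ * Piᵀ := by
    apply Matrix.inv_eq_right_inv
    calc Pmᵀ * G * Pm * (Pi * G⁻¹ * Piᵀ) = Pmᵀ * (G * ((Pm * Pi) * G⁻¹)) * Piᵀ := by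
          simp only [mul_assoc]
      _ = 1 := by rw [e1, one_mul, hGi, mul_one, e2t]
  rw [Gp_eq, R_eq, R_eq, ← hPm, ← hPi, Matrix.inv_submatrix_equiv, hMinv]
  have h1 : ((Pi * G⁻¹ * Piᵀ).submatrix e.symm e.symm * Sᵀ *
      (Pmᵀ * G * Pm).submatrix e.symm e.symm).submatrix e e
      = (Pi * G⁻¹ * Piᵀ) * (S.submatrix e e)ᵀ * (Pmᵀ * G * Pm) := by
    have hSS : Sᵀ = ((S.submatrix e e)ᵀ).submatrix e.symm e.symm := by
      ext a b; simp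
    rw [hSS, Matrix.submatrix_mul_equiv, Matrix.submatrix_mul_equiv]
    ext a b; simp
  rw [h1, adj, Matrix.transpose_mul, Matrix.transpose_mul]
  calc G⁻¹ * (Piᵀ * ((S.submatrix e e)ᵀ * Pmᵀ)) * G
      = (Pm * Pi) * G⁻¹ * Piᵀ * (S.submatrix e e)ᵀ * Pmᵀ * G * (Pm * Pi) := by
        rw [e1, one_mul, mul_one]; simp only [mul_assoc]
    _ = _ := by simp only [mul_assoc]

end Cfsg.Agent.Lib.Helper35.OAsch
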