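import Cfsg.Agent.Lib.Helper35.OAsch.TB3

set_option autoImplicit false

namespace Cfsg.Agent.Lib.Helper35.OAsch

open Cfsg Cfsg.Geo Matrix Cfsg.Agent.Lib.Helper13.Asch Cfsg.Agent.Lib.Helper21.Asch
  Cfsg.Agent.Lib.Helper21.OAsch
open scoped Kronecker MatrixGroups

variable {ι : Type} [Fintype ι] [DecidableEq ι] {F : Type*} [Field F]
variable {Q : (ι → F) → F} {G : Matrix ι ι F}

theorem Gp_iso {κ : Type} [Fintype κ] [DecidableEq κ] (e : ι ≃ κ) (P x : GL ι F)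
    (hx : (x : Matrix ι ι F)ᵀ * G * (x : Matrix ι ι F) = G) (S : Matrix κ κ F)
    (hS : (x : Matrix ι ι F) = (P : Matrix ι ι F) * Matrix.reindex e.symm e.symm S *
      ((P⁻¹ : GL ι F) : Matrix ι ι F)) : Sᵀ * Gp e P G * S = Gp e P G := by
  obtain ⟨Pm, hPm⟩ : ∃ Pm : Matrix ι ι F, Pm = (P : Matrix ι ι F) := ⟨_, rfl⟩
  obtain ⟨Pi, hPi⟩ : ∃ Pi : Matrix ι ι F, Pi = ((P⁻¹ : GL ι F) : Matrix ι ι F) := ⟨_, rfl⟩
  have e2 : Pi * Pm = 1 := by rw [hPm, hPi, ← Units.val_mul, inv_mul_cancel, Units.val_one]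
  have e2t : Pmᵀ * Piᵀ = 1 := by rw [← Matrix.transpose_mul, e2, Matrix.transpose_one]
  obtain ⟨S', hS'⟩ : ∃ S' : Matrix ι ι F, S' = S.submatrix e e := ⟨_, rfl⟩
  rw [R_eq, ← hS', ← hPm, ← hPi] at hS
  have h1 : S'ᵀ * (Pmᵀ * G * Pm) * S' = Pmᵀ * G * Pm := by
    rw [hS, Matrix.transpose_mul, Matrix.transpose_mul] at hx
    calc S'ᵀ * (Pmᵀ * G * Pm) * S'
        = (Pmᵀ * Piᵀ) * S'ᵀ * Pmᵀ * G * Pm * S' * (Pi * Pm) := by
          rw [e2t, e2, one_mul, mul_one]; simp only [mul_assoc]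
      _ = Pmᵀ * (Piᵀ * (S'ᵀ * Pmᵀ) * G * (Pm * S' * Pi)) * Pm := by simp only [mul_assoc]
      _ = _ := by rw [hx]
  have hSS : S = S'.submatrix e.symm e.symm := by
    rw [hS']; ext a b; simp
  rw [Gp_eq, ← hPm]
  conv_lhs => rw [hSS]
  rw [Matrix.transpose_submatrix, Matrix.submatrix_mul_equiv, Matrix.submatrix_mul_equiv, h1]

end Cfsg.Agent.Lib.Helper35.OAsch
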