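import Cfsg.Agent.Lib.Helper21.OAsch.Defs

set_option autoImplicit false

namespace Cfsg.Agent.Lib.Helper35.OAsch

open Cfsg Cfsg.Geo Matrix Cfsg.Agent.Lib.Helper13.Asch Cfsg.Agent.Lib.Helper21.OAsch
open scoped Kronecker MatrixGroups

variable {ι : Type} [Fintype ι] [DecidableEq ι] {F : Type*} [Field F] {Q : (ι → F) → F}
  {G : Matrix ι ι F}

theorem c5_of_gram [Fintype F] (hO : OData Q G) (H : Subgroup (GL ι F)) (F₁ : Subfield F) (r : ℕ)
    (hr : r.Prime) (hcard : Fintype.card F = Nat.card F₁ ^ r) (P : GL ι F)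
    (hH : H ≤ subfieldSubgroup F₁ P) (μ : F) (hμ : μ ≠ 0)
    (hG : ∀ i j, μ ^ 2 * ((P : Matrix ι ι F)ᵀ * G * (P : Matrix ι ι F)) i j ∈ F₁) : C5 Q H := by
  let sc : GL ι F := Units.map (Matrix.scalar ι : F →+* Matrix ι ι F).toMonoidHom (Units.mk0 μ hμ)
  have hsc : (sc : Matrix ι ι F) = μ • (1 : Matrix ι ι F) := by
    show Matrix.scalar ι μ = _
    simp [Matrix.smul_one_eq_diagonal]
  have hcomm : ∀ y : GL ι F, sc * y = y * sc := by
    intro y
    apply Units.ext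
    rw [Units.val_mul, Units.val_mul, hsc, Matrix.smul_mul, Matrix.mul_smul, one_mul, mul_one]
  refine ⟨F₁, r, sc * P, hr, hcard, ?_, ?_⟩
  · intro u hu
    have hP' : ((sc * P : GL ι F) : Matrix ι ι F) = μ • (P : Matrix ι ι F) := by
      rw [Units.val_mul, hsc, Matrix.smul_mul, one_mul]
    rw [hP']
    have h2 := hO.quad ((μ • (P : Matrix ι ι F)) *ᵥ u)
    have h3 : ((μ • (P : Matrix ι ι F)) *ᵥ u) ⬝ᵥ (G *ᵥ ((μ • (P : Matrix ι ι F)) *ᵥ u))
        = ∑ i, u i * ∑ j, (μ ^ 2 * ((P : Matrix ι ι F)ᵀ * G * (P : Matrix ι ι F)) i j) * u j := by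
      rw [Matrix.smul_mulVec, Matrix.mulVec_smul, smul_dotProduct, dotProduct_smul,
        Matrix.mulVec_mulVec, ← Matrix.vecMul_transpose, ← Matrix.dotProduct_mulVec,
        Matrix.mulVec_mulVec, ← mul_assoc]
      simp only [dotProduct, Matrix.mulVec, smul_eq_mul, Finset.mul_sum]
      refine Finset.sum_congr rfl fun i _ => Finset.sum_congr rfl fun j _ => ?_
      ring
    have h4 : Q ((μ • (P : Matrix ι ι F)) *ᵥ u) = (2 : F)⁻¹ *
        ∑ i, u i * ∑ j, (μ ^ 2 * ((P : Matrix ι ι F)ᵀ * G * (P : Matrix ι ι F)) i j) * u j := by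
      rw [← h3, ← h2, ← mul_assoc, inv_mul_cancel₀ hO.two, one_mul]
    rw [h4]
    refine F₁.mul_mem (F₁.inv_mem ?_) ?_
    · exact_mod_cast natCast_mem F₁ 2
    · exact F₁.sum_mem fun i _ => F₁.mul_mem (hu i)
        (F₁.sum_mem fun j _ => F₁.mul_mem (hG i j) (hu j))
  · refine le_trans hH ?_
    rintro _ ⟨x, hx, rfl⟩
    refine ⟨x, hx, ?_⟩
    show sc * P * x * (sc * P)⁻¹ = P * x * P⁻¹
    rw [_root_.mul_inv_rev, mul_assoc sc P x, ← mul_assoc, mul_assoc sc, hcomm (P * x * P⁻¹),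
      mul_assoc, mul_inv_cancel, mul_one]

end Cfsg.Agent.Lib.Helper35.OAsch
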