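import Cfsg.Agent.Lib.Helper21.OAsch.Defs
import Cfsg.Agent.Lib.Helper96.Asch.L0b

set_option autoImplicit false

namespace Cfsg.Agent.Lib.Helper35.OAsch

open Cfsg Cfsg.Geo Matrix Cfsg.Agent.Lib.Helper13.Asch Cfsg.Agent.Lib.Helper21.OAsch
open scoped Kronecker MatrixGroups

variable {ι : Type} [Fintype ι] [DecidableEq ι] {F : Type*} [Field F] {Q : (ι → F) → F}
  {G : Matrix ι ι F}

/-- uniqueness (up to scalars) of the invariant bilinear form of an absolutely irreducible group -/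
theorem form_unique (hG : IsUnit G.det) (N : Subgroup (GL ι F)) (henv : env N = ⊤)
    (hN : ∀ s ∈ N, (s : Matrix ι ι F)ᵀ * G * (s : Matrix ι ι F) = G) (X : Matrix ι ι F)
    (hX : ∀ s ∈ N, (s : Matrix ι ι F)ᵀ * X * (s : Matrix ι ι F) = X) : ∃ c : F, X = c • G := by
  have hGi : G * G⁻¹ = 1 := Matrix.mul_nonsing_inv G hG
  have hGi' : G⁻¹ * G = 1 := Matrix.nonsing_inv_mul G hG
  obtain ⟨c, hc⟩ := Cfsg.Agent.Lib.Helper96.Asch.scalar_of_commute henv (G⁻¹ * X) (by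
    intro s hs
    have e1 : (s : Matrix ι ι F) * ((s⁻¹ : GL ι F) : Matrix ι ι F) = 1 := by
      rw [← Units.val_mul, mul_inv_cancel, Units.val_one]
    have h1 : (s : Matrix ι ι F) * G⁻¹ * (s : Matrix ι ι F)ᵀ = G⁻¹ := by
      calc (s : Matrix ι ι F) * G⁻¹ * (s : Matrix ι ι F)ᵀ
          = (s : Matrix ι ι F) * G⁻¹ * (s : Matrix ι ι F)ᵀ *
            (G * ((s : Matrix ι ι F) * ((s⁻¹ : GL ι F) : Matrix ι ι F)) * G⁻¹) := by
            rw [e1, mul_one, hGi, mul_one]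
        _ = (s : Matrix ι ι F) * G⁻¹ * ((s : Matrix ι ι F)ᵀ * G * (s : Matrix ι ι F)) *
            ((s⁻¹ : GL ι F) : Matrix ι ι F) * G⁻¹ := by simp only [mul_assoc]
        _ = (s : Matrix ι ι F) * (G⁻¹ * G) * ((s⁻¹ : GL ι F) : Matrix ι ι F) * G⁻¹ := by
            rw [hN s hs]; simp only [mul_assoc]
        _ = _ := by rw [hGi', mul_one, e1, one_mul]
    calc G⁻¹ * X * (s : Matrix ι ι F)
        = (s : Matrix ι ι F) * G⁻¹ * (s : Matrix ι ι F)ᵀ * X * (s : Matrix ι ι F) := by rw [h1]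
      _ = (s : Matrix ι ι F) * G⁻¹ * ((s : Matrix ι ι F)ᵀ * X * (s : Matrix ι ι F)) := by
          simp only [mul_assoc]
      _ = _ := by rw [hX s hs, mul_assoc])
  refine ⟨c, ?_⟩
  calc X = G * (G⁻¹ * X) := by rw [← mul_assoc, hGi, one_mul]
    _ = _ := by rw [hc, Matrix.mul_smul, mul_one]

theorem gram_rational (hO : OData Q G) (N : Subgroup (GL ι F)) (henv : env N = ⊤) (hN : Iso G N)
    (F₁ : Subfield F) (σ : F →+* F) (hσ1 : ∀ x, σ x = x → x ∈ F₁) (B : GL ι F)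
    (hB : ∀ s ∈ N, σ.mapMatrix ((B * s * B⁻¹ : GL ι F) : Matrix ι ι F) =
      ((B * s * B⁻¹ : GL ι F) : Matrix ι ι F)) :
    ∃ μ : F, μ ≠ 0 ∧ ∀ i j, μ ^ 2 * (((B⁻¹ : GL ι F) : Matrix ι ι F)ᵀ * G *
      ((B⁻¹ : GL ι F) : Matrix ι ι F)) i j ∈ F₁ := by
  obtain ⟨Bm, hBm⟩ : ∃ Bm : Matrix ι ι F, Bm = (B : Matrix ι ι F) := ⟨_, rfl⟩
  obtain ⟨Bi, hBi⟩ : ∃ Bi : Matrix ι ι F, Bi = ((B⁻¹ : GL ι F) : Matrix ι ι F) := ⟨_, rfl⟩
  rw [← hBi]
  have e1 : Bm * Bi = 1 := by rw [hBm, hBi, ← Units.val_mul, mul_inv_cancel, Units.val_one]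
  have e2 : Bi * Bm = 1 := by rw [hBm, hBi, ← Units.val_mul, inv_mul_cancel, Units.val_one]
  have e1t : Biᵀ * Bmᵀ = 1 := by rw [← Matrix.transpose_mul, e1, Matrix.transpose_one]
  have e2t : Bmᵀ * Biᵀ = 1 := by rw [← Matrix.transpose_mul, e2, Matrix.transpose_one]
  obtain ⟨G', hG'⟩ : ∃ G' : Matrix ι ι F, G' = Biᵀ * G * Bi := ⟨_, rfl⟩
  rw [← hG']
  have hS : ∀ s : GL ι F, ((B * s * B⁻¹ : GL ι F) : Matrix ι ι F) = Bm * (s : Matrix ι ι F) * Bi := by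
    intro s; rw [Units.val_mul, Units.val_mul, hBm, hBi]
  -- invariance of `G'`
  have hinv : ∀ s ∈ N, (Bm * (s : Matrix ι ι F) * Bi)ᵀ * G' * (Bm * (s : Matrix ι ι F) * Bi) = G' := by
    intro s hs
    rw [hG', Matrix.transpose_mul, Matrix.transpose_mul]
    calc Biᵀ * ((s : Matrix ι ι F)ᵀ * Bmᵀ) * (Biᵀ * G * Bi) * (Bm * (s : Matrix ι ι F) * Bi)
        = Biᵀ * (s : Matrix ι ι F)ᵀ * (Bmᵀ * Biᵀ) * G * (Bi * Bm) * (s : Matrix ι ι F) * Bi := by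
          simp only [mul_assoc]
      _ = Biᵀ * ((s : Matrix ι ι F)ᵀ * G * (s : Matrix ι ι F)) * Bi := by
          rw [e2t, e2, mul_one, mul_one]; simp only [mul_assoc]
      _ = _ := by rw [hN s hs]
  obtain ⟨sG, hsG⟩ : ∃ sG : Matrix ι ι F, sG = σ.mapMatrix G' := ⟨_, rfl⟩
  have hinv2 : ∀ s ∈ N, (Bm * (s : Matrix ι ι F) * Bi)ᵀ * sG * (Bm * (s : Matrix ι ι F) * Bi) = sG := by
    intro s hs
    have h1 := congrArg σ.mapMatrix (hinv s hs)
    have h2 := hB s hs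
    rw [hS] at h2
    have h3 : σ.mapMatrix ((Bm * (s : Matrix ι ι F) * Bi)ᵀ) = (Bm * (s : Matrix ι ι F) * Bi)ᵀ := by
      conv_rhs => rw [← h2]
      rw [RingHom.mapMatrix_apply, RingHom.mapMatrix_apply, Matrix.transpose_map]
    rw [map_mul, map_mul, h2, h3, ← hsG] at h1
    exact h1
  obtain ⟨c, hc⟩ := form_unique hO.unit N henv hN (Bmᵀ * sG * Bm) (by
    intro s hs
    have h1 := hinv2 s hs
    rw [Matrix.transpose_mul, Matrix.transpose_mul] at h1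
    calc (s : Matrix ι ι F)ᵀ * (Bmᵀ * sG * Bm) * (s : Matrix ι ι F)
        = Bmᵀ * (Biᵀ * ((s : Matrix ι ι F)ᵀ * Bmᵀ) * sG * (Bm * (s : Matrix ι ι F) * Bi)) * Bm := by
          have : Bmᵀ * (Biᵀ * ((s : Matrix ι ι F)ᵀ * Bmᵀ) * sG * (Bm * (s : Matrix ι ι F) * Bi)) * Bm
            = (Bmᵀ * Biᵀ) * (s : Matrix ι ι F)ᵀ * Bmᵀ * sG * Bm * (s : Matrix ι ι F) * (Bi * Bm) := by
            simp only [mul_assoc]
          rw [this, e2t, e2, one_mul, mul_one]; simp only [mul_assoc]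
      _ = _ := by rw [h1])
  have hsc : sG = c • G' := by
    calc sG = (Biᵀ * Bmᵀ) * sG * (Bm * Bi) := by rw [e1t, e1, one_mul, mul_one]
      _ = Biᵀ * (Bmᵀ * sG * Bm) * Bi := by simp only [mul_assoc]
      _ = _ := by rw [hc, hG', Matrix.mul_smul, Matrix.smul_mul]
  -- determinants
  have hdetG : G.det ≠ 0 := hO.unit.ne_zero
  have hdetBi : Bi.det ≠ 0 := by
    intro h
    have := congrArg Matrix.det e1
    rw [Matrix.det_mul, h, mul_zero, Matrix.det_one] at this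
    exact zero_ne_one this
  have hdetG' : G'.det = Bi.det ^ 2 * G.det := by
    rw [hG', Matrix.det_mul, Matrix.det_mul, Matrix.det_transpose]; ring
  obtain ⟨k, hk⟩ := hO.odd
  -- a nonzero entry
  obtain ⟨i, j, hij⟩ : ∃ i j, G' i j ≠ 0 := by
    by_contra hcon
    push Not at hcon
    have h0 : G' = 0 := by ext i j; exact hcon i j
    have hne : Nonempty ι := by
      rw [← Fintype.card_pos_iff]; omega
    rw [h0, Matrix.det_zero] at hdetG'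
    exact (mul_ne_zero (pow_ne_zero 2 hdetBi) hdetG) hdetG'.symm
  obtain ⟨ν, hν⟩ : ∃ ν : F, ν = G' i j := ⟨_, rfl⟩
  rw [← hν] at hij
  have hσν : σ ν = c * ν := by
    have := congrFun (congrFun hsc i) j
    rw [hsG, RingHom.mapMatrix_apply, Matrix.map_apply, Matrix.smul_apply, smul_eq_mul, ← hν] at this
    exact this
  have hc0 : c ≠ 0 := by
    rintro rfl
    rw [zero_mul] at hσν
    exact hij ((map_eq_zero σ).mp hσν)
  obtain ⟨Y, hY⟩ : ∃ Y : Matrix ι ι F, Y = ν⁻¹ • G' := ⟨_, rfl⟩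
  have hYmem : ∀ a b, Y a b ∈ F₁ := by
    intro a b
    apply hσ1
    have h1 := congrFun (congrFun hsc a) b
    rw [hsG, RingHom.mapMatrix_apply, Matrix.map_apply, Matrix.smul_apply, smul_eq_mul] at h1
    rw [hY, Matrix.smul_apply, smul_eq_mul, map_mul, map_inv₀, hσν, h1]
    field_simp
  have hdetY : Y.det ∈ F₁ := by
    let A₁ : Matrix ι ι F₁ := Matrix.of fun a b => ⟨Y a b, hYmem a b⟩
    have hA₁ : A₁.map F₁.subtype = Y := by
      ext a b; rfl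
    have h1 : F₁.subtype A₁.det = Y.det := by
      rw [RingHom.map_det, RingHom.mapMatrix_apply, hA₁]
    rw [← h1]
    exact A₁.det.2
  refine ⟨ν⁻¹ ^ (k + 1) * Bi.det, mul_ne_zero (pow_ne_zero _ (inv_ne_zero hij)) hdetBi, ?_⟩
  intro a b
  have hkey : (ν⁻¹ ^ (k + 1) * Bi.det) ^ 2 * G' a b = (Y.det * G.det⁻¹) * Y a b := by
    rw [hY, Matrix.det_smul, hdetG', hk, Matrix.smul_apply, smul_eq_mul]
    generalize ν⁻¹ = l
    have : G.det * G.det⁻¹ = 1 := mul_inv_cancel₀ hdetG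
    calc (l ^ (k + 1) * Bi.det) ^ 2 * G' a b
        = l ^ (2 * k + 1) * Bi.det ^ 2 * 1 * (l * G' a b) := by ring
      _ = _ := by rw [← this]; ring
  rw [hkey]
  exact F₁.mul_mem (F₁.mul_mem hdetY (F₁.inv_mem (hO.rat F₁))) (hYmem a b)

end Cfsg.Agent.Lib.Helper35.OAsch
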