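import Cfsg.Agent.Lib.Helper35.Asch.L8
import Cfsg.Agent.Lib.Helper35.OAsch.O11a
import Cfsg.Agent.Lib.Helper35.OAsch.O11b
import Cfsg.Agent.Lib.Helper35.OAsch.O11c

set_option autoImplicit false

namespace Cfsg.Agent.Lib.Helper35.OAsch

open Cfsg Cfsg.Geo Matrix Cfsg.Agent.Lib.Helper13.Asch Cfsg.Agent.Lib.Helper21.OAsch
open scoped Kronecker MatrixGroups

variable {ι : Type} [Fintype ι] [DecidableEq ι] {F : Type*} [Field F] {Q : (ι → F) → F}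
  {G : Matrix ι ι F}

theorem orth_subfield [Fintype F] (hO : OData Q G) (H N : Subgroup (GL ι F)) (hN : Nrm H N)
    (henv : env N = ⊤) (hNiso : Iso G N) (F₀ : Subfield F) (hF₀ : F₀ ≠ ⊤)
    (hr : RealisableOver F₀ (matrixSet N)) : C5 Q H := by
  obtain ⟨F₁, r, σ, hrp, hcard, hσ0, hσ1⟩ := Cfsg.Agent.Lib.Helper35.Asch.exists_sigma F₀ hF₀
  obtain ⟨B, hB⟩ := hr
  have hfix : ∀ s ∈ N, σ.mapMatrix ((B * s * B⁻¹ : GL ι F) : Matrix ι ι F) =
      ((B * s * B⁻¹ : GL ι F) : Matrix ι ι F) := by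
    intro s hs
    ext i j
    rw [RingHom.mapMatrix_apply, Matrix.map_apply]
    apply hσ0
    have := hB (s : Matrix ι ι F) ⟨s, hs, rfl⟩ i j
    simpa [Units.val_mul] using this
  obtain ⟨μ, hμ, hG⟩ := gram_rational hO N henv hNiso F₁ σ hσ1 B hfix
  exact c5_of_gram hO H F₁ r hrp hcard B⁻¹ (subfield_of_sigma H N hN henv F₁ σ hσ1 B hfix) μ hμ hG

end Cfsg.Agent.Lib.Helper35.OAsch
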