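import Cfsg.Agent.Lib.Helper21.OAsch.Defs2

set_option autoImplicit false

namespace Cfsg.Agent.Lib.Helper35.OAsch

open Cfsg Cfsg.Geo Matrix Cfsg.Agent.Lib.Helper13.Asch Cfsg.Agent.Lib.Helper21.Asch
  Cfsg.Agent.Lib.Helper21.OAsch
open scoped Kronecker MatrixGroups

variable {ι : Type} [Fintype ι] [DecidableEq ι] {F : Type*} [Field F]
variable {Q : (ι → F) → F} {G : Matrix ι ι F}

theorem field_mulVec_ne {r : ℕ} {K : Subalgebra F (Matrix ι ι F)} (hK : IsFieldSubalgebra r K)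
    {k : Matrix ι ι F} (hk : k ∈ K) {v : ι → F} (hv : v ≠ 0) (h : k *ᵥ v = 0) : k = 0 := by
  by_contra hne
  obtain ⟨y, hy, hky⟩ := hK.inv k hk hne
  apply hv
  have h1 : y * k = 1 := by rw [hK.comm y hy k hk, hky]
  calc v = (y * k) *ᵥ v := by rw [h1, Matrix.one_mulVec]
    _ = y *ᵥ (k *ᵥ v) := by rw [Matrix.mulVec_mulVec]
    _ = 0 := by rw [h, Matrix.mulVec_zero]

theorem not_mem_fieldNormalizer {r : ℕ} (hr : 3 ≤ r) (K : Subalgebra F (Matrix ι ι F))
    (hK : IsFieldSubalgebra r K) (g : GL ι F) (hg : g ≠ 1) (W U : Submodule F (ι → F))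
    (hW : Fintype.card ι < 2 * Module.finrank F W) (hU : Module.finrank F U ≤ 2)
    (hgW : ∀ x ∈ W, (g : Matrix ι ι F) *ᵥ x = x) (hgU : ∀ x, (g : Matrix ι ι F) *ᵥ x - x ∈ U) :
    g ∉ subalgebraNormalizer K := by
  intro hgK
  have e2 : ((g⁻¹ : GL ι F) : Matrix ι ι F) * (g : Matrix ι ι F) = 1 := by
    rw [← Units.val_mul, inv_mul_cancel, Units.val_one]
  -- Step 1
  have hcomm : ∀ k ∈ K, (g : Matrix ι ι F) * k = k * (g : Matrix ι ι F) := by
    intro k hk
    by_cases hk0 : k = 0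
    · rw [hk0, mul_zero, zero_mul]
    obtain ⟨k', hk', hkk'⟩ := hK.inv k hk hk0
    have hinj : Function.Injective (Matrix.toLin' k') := by
      intro a b hab
      have h1 : k *ᵥ (k' *ᵥ a) = k *ᵥ (k' *ᵥ b) := by
        rw [← Matrix.toLin'_apply k' a, ← Matrix.toLin'_apply k' b, hab]
      rwa [Matrix.mulVec_mulVec, Matrix.mulVec_mulVec, hkk', Matrix.one_mulVec,
        Matrix.one_mulVec] at h1
    have hfr : Module.finrank F (W.map (Matrix.toLin' k')) = Module.finrank F W :=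
      (LinearEquiv.finrank_eq (Submodule.equivMapOfInjective _ hinj W)).symm
    have hne : W ⊓ W.map (Matrix.toLin' k') ≠ ⊥ := by
      intro hbot
      have h1 := Submodule.finrank_sup_add_finrank_inf_eq W (W.map (Matrix.toLin' k'))
      rw [hbot, finrank_bot, hfr] at h1
      have h2 : Module.finrank F ↥(W ⊔ W.map (Matrix.toLin' k')) ≤ Module.finrank F (ι → F) :=
        Submodule.finrank_le _
      rw [Module.finrank_fintype_fun_eq_card] at h2
      omega
    obtain ⟨v, hv, hv0⟩ := Submodule.exists_mem_ne_zero_of_ne_bot hne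
    obtain ⟨hvW, w, hw, hwv⟩ := hv
    have hkv : k *ᵥ v = w := by
      rw [← hwv, Matrix.toLin'_apply, Matrix.mulVec_mulVec, hkk', Matrix.one_mulVec]
    have hgv : (g : Matrix ι ι F) *ᵥ v = v := hgW v hvW
    have hgiv : ((g⁻¹ : GL ι F) : Matrix ι ι F) *ᵥ v = v := by
      conv_lhs => rw [← hgv]
      rw [Matrix.mulVec_mulVec, e2, Matrix.one_mulVec]
    have hk2 : (g : Matrix ι ι F) * k * ((g⁻¹ : GL ι F) : Matrix ι ι F) ∈ K := (hgK k).1 hk
    have hz : (k - (g : Matrix ι ι F) * k * ((g⁻¹ : GL ι F) : Matrix ι ι F)) *ᵥ v = 0 := by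
      rw [Matrix.sub_mulVec, ← Matrix.mulVec_mulVec, hgiv, ← Matrix.mulVec_mulVec, hkv,
        hgW w hw, sub_self]
    have h0 := field_mulVec_ne hK (K.sub_mem hk hk2) hv0 hz
    have h1 : k = (g : Matrix ι ι F) * k * ((g⁻¹ : GL ι F) : Matrix ι ι F) := sub_eq_zero.1 h0
    calc (g : Matrix ι ι F) * k = (g : Matrix ι ι F) * k * (((g⁻¹ : GL ι F) : Matrix ι ι F) *
          (g : Matrix ι ι F)) := by rw [e2, mul_one]
      _ = ((g : Matrix ι ι F) * k * ((g⁻¹ : GL ι F) : Matrix ι ι F)) * (g : Matrix ι ι F) := by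
          simp only [mul_assoc]
      _ = _ := by rw [← h1]
  -- Step 2
  obtain ⟨x, hx⟩ : ∃ x, (g : Matrix ι ι F) *ᵥ x - x ≠ 0 := by
    by_contra hc
    push Not at hc
    apply hg
    apply Units.ext
    rw [Units.val_one]
    apply Matrix.toLin'.injective
    apply LinearMap.ext
    intro x
    rw [Matrix.toLin'_apply, Matrix.toLin'_one, LinearMap.id_apply]
    exact sub_eq_zero.1 (hc x)
  obtain ⟨u, hu⟩ : ∃ u, u = (g : Matrix ι ι F) *ᵥ x - x := ⟨_, rfl⟩
  rw [← hu] at hx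
  have hmem : ∀ k ∈ K, k *ᵥ u ∈ U := by
    intro k hk
    have : k *ᵥ u = (g : Matrix ι ι F) *ᵥ (k *ᵥ x) - k *ᵥ x := by
      rw [hu, Matrix.mulVec_sub, Matrix.mulVec_mulVec, Matrix.mulVec_mulVec, hcomm k hk]
    rw [this]
    exact hgU _
  let T : K →ₗ[F] U :=
    { toFun := fun k => ⟨(k : Matrix ι ι F) *ᵥ u, hmem k k.2⟩
      map_add' := by
        intro a b
        apply Subtype.ext
        simp [Matrix.add_mulVec]
      map_smul' := by
        intro c a
        apply Subtype.ext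
        simp [Matrix.smul_mulVec] }
  have hTinj : Function.Injective T := by
    rw [← LinearMap.ker_eq_bot, LinearMap.ker_eq_bot']
    intro k hk
    have h1 : (k : Matrix ι ι F) *ᵥ u = 0 := congrArg Subtype.val hk
    exact Subtype.ext (field_mulVec_ne hK k.2 hx h1)
  have := LinearMap.finrank_le_finrank_of_injective hTinj
  rw [hK.finrank_eq] at this
  omega

end Cfsg.Agent.Lib.Helper35.OAsch
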