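import Cfsg.Agent.Lib.Helper21.OAsch.Defs2

set_option autoImplicit false

namespace Cfsg.Agent.Lib.Helper35.OAsch

open Cfsg Cfsg.Geo Matrix Cfsg.Agent.Lib.Helper13.Asch Cfsg.Agent.Lib.Helper21.Asch
  Cfsg.Agent.Lib.Helper21.OAsch
open scoped Kronecker MatrixGroups

variable {ι : Type} [Fintype ι] [DecidableEq ι] {F : Type*} [Field F]
variable {Q : (ι → F) → F} {G : Matrix ι ι F}

theorem pg_mul {k t : ℕ} (gs gs' : Fin t → GL (Fin k) F) :
    pureT (fun i => (gs i : Matrix (Fin k) (Fin k) F)) *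
      pureT (fun i => (gs' i : Matrix (Fin k) (Fin k) F)) =
      pureT (fun i => ((gs * gs') i : Matrix (Fin k) (Fin k) F)) := by
  rw [← pureT_mul]; rfl

theorem pg_one {k t : ℕ} :
    pureT (fun i => ((1 : Fin t → GL (Fin k) F) i : Matrix (Fin k) (Fin k) F)) = 1 :=
  pureT_one

theorem permT_pureT {k t : ℕ} (σ : Equiv.Perm (Fin t)) (f : Fin t → Matrix (Fin k) (Fin k) F) :
    permT σ * pureT f = pureT (fun i => f (σ.symm i)) * permT σ := by
  ext x y
  rw [permT_mul, mul_permT, pureT_apply, pureT_apply]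
  rw [← Equiv.prod_comp σ (fun j => f (σ.symm j) (x j) ((y ∘ σ.symm) j))]
  simp

theorem permT_permT {k t : ℕ} (σ τ : Equiv.Perm (Fin t)) :
    (permT σ * permT τ : Matrix (Fin t → Fin k) (Fin t → Fin k) F) = permT (σ * τ) := by
  ext x y
  rw [permT_mul]
  rfl

theorem permT_one {k t : ℕ} :
    (permT (1 : Equiv.Perm (Fin t)) : Matrix (Fin t → Fin k) (Fin t → Fin k) F) = 1 := by
  ext x y
  simp [permT, Matrix.one_apply, eq_comm]

theorem wreath_normal_form {k t : ℕ} (x : GL (Fin t → Fin k) F)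
    (hx : x ∈ tensorWreathStandard k t F) :
    ∃ (gs : Fin t → GL (Fin k) F) (σ : Equiv.Perm (Fin t)),
      (x : Matrix (Fin t → Fin k) (Fin t → Fin k) F) =
        pureT (fun i => (gs i : Matrix (Fin k) (Fin k) F)) * permT σ := by
  unfold tensorWreathStandard at hx
  induction hx using Subgroup.closure_induction with
  | mem x hx =>
    rcases hx with ⟨gs, hgs⟩ | ⟨σ, hσ⟩
    · refine ⟨gs, 1, ?_⟩
      rw [permT_one, mul_one]
      ext a b
      exact hgs a b
    · refine ⟨1, σ, ?_⟩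
      rw [pg_one, one_mul]
      ext a b
      exact hσ a b
  | one => exact ⟨1, 1, by rw [pg_one, permT_one, mul_one, Units.val_one]⟩
  | mul x y _ _ hx hy =>
    obtain ⟨gs, σ, h1⟩ := hx
    obtain ⟨gs', τ, h2⟩ := hy
    refine ⟨gs * (fun i => gs' (σ.symm i)), σ * τ, ?_⟩
    rw [Units.val_mul, h1, h2, ← pg_mul, ← permT_permT]
    calc pureT (fun i => (gs i : Matrix (Fin k) (Fin k) F)) * permT σ *
          (pureT (fun i => (gs' i : Matrix (Fin k) (Fin k) F)) * permT τ)
        = pureT (fun i => (gs i : Matrix (Fin k) (Fin k) F)) *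
          (permT σ * pureT (fun i => (gs' i : Matrix (Fin k) (Fin k) F))) * permT τ := by
          simp only [mul_assoc]
      _ = _ := by rw [permT_pureT]; simp only [mul_assoc]
  | inv x _ hx =>
    obtain ⟨gs, σ, h1⟩ := hx
    refine ⟨fun i => (gs (σ i))⁻¹, σ.symm, ?_⟩
    have h2 : (x : Matrix (Fin t → Fin k) (Fin t → Fin k) F) *
        (permT σ.symm * pureT (fun i => ((gs⁻¹) i : Matrix (Fin k) (Fin k) F))) = 1 := by
      rw [h1]
      calc pureT (fun i => (gs i : Matrix (Fin k) (Fin k) F)) * permT σ *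
            (permT σ.symm * pureT (fun i => ((gs⁻¹) i : Matrix (Fin k) (Fin k) F)))
          = pureT (fun i => (gs i : Matrix (Fin k) (Fin k) F)) * (permT σ * permT σ.symm) *
            pureT (fun i => ((gs⁻¹) i : Matrix (Fin k) (Fin k) F)) := by simp only [mul_assoc]
        _ = 1 := by rw [permT_mul_permT_symm, mul_one, pg_mul, mul_inv_cancel, pg_one]
    have h3 : ((x⁻¹ : GL (Fin t → Fin k) F) : Matrix (Fin t → Fin k) (Fin t → Fin k) F) =
        permT σ.symm * pureT (fun i => ((gs⁻¹) i : Matrix (Fin k) (Fin k) F)) := by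
      have e2 : ((x⁻¹ : GL (Fin t → Fin k) F) : Matrix (Fin t → Fin k) (Fin t → Fin k) F) *
          (x : Matrix (Fin t → Fin k) (Fin t → Fin k) F) = 1 := by
        rw [← Units.val_mul, inv_mul_cancel, Units.val_one]
      calc ((x⁻¹ : GL (Fin t → Fin k) F) : Matrix (Fin t → Fin k) (Fin t → Fin k) F)
          = ((x⁻¹ : GL (Fin t → Fin k) F) : Matrix (Fin t → Fin k) (Fin t → Fin k) F) *
            ((x : Matrix (Fin t → Fin k) (Fin t → Fin k) F) *
            (permT σ.symm * pureT (fun i => ((gs⁻¹) i : Matrix (Fin k) (Fin k) F)))) := by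
            rw [h2, mul_one]
        _ = _ := by rw [← mul_assoc, e2, one_mul]
    rw [h3, permT_pureT]
    rfl

end Cfsg.Agent.Lib.Helper35.OAsch
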