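import Cfsg.Agent.Lib.Helper35.OAsch.R6a

set_option autoImplicit false

namespace Cfsg.Agent.Lib.Helper35.OAsch

open Cfsg Cfsg.Geo Matrix Cfsg.Agent.Lib.Helper13.Asch Cfsg.Agent.Lib.Helper21.Asch
  Cfsg.Agent.Lib.Helper21.OAsch
open scoped Kronecker MatrixGroups

variable {ι : Type} [Fintype ι] [DecidableEq ι] {F : Type*} [Field F]
variable {Q : (ι → F) → F} {G : Matrix ι ι F}

theorem sq_pure_of_two {k : ℕ} (x : GL (Fin 2 → Fin k) F) (hx : x ∈ tensorWreathStandard k 2 F) :
    ∃ gs : Fin 2 → GL (Fin k) F, ((x * x : GL (Fin 2 → Fin k) F) :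
      Matrix (Fin 2 → Fin k) (Fin 2 → Fin k) F) =
        pureT (fun i => (gs i : Matrix (Fin k) (Fin k) F)) := by
  obtain ⟨gs, σ, h1⟩ := wreath_normal_form x hx
  have hall : ∀ τ : Equiv.Perm (Fin 2), τ * τ = 1 := by decide
  have hσ : σ * σ = 1 := hall σ
  refine ⟨gs * (fun i => gs (σ.symm i)), ?_⟩
  rw [Units.val_mul, h1, ← pg_mul]
  calc pureT (fun i => (gs i : Matrix (Fin k) (Fin k) F)) * permT σ *
        (pureT (fun i => (gs i : Matrix (Fin k) (Fin k) F)) * permT σ)
      = pureT (fun i => (gs i : Matrix (Fin k) (Fin k) F)) *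
        (permT σ * pureT (fun i => (gs i : Matrix (Fin k) (Fin k) F))) * permT σ := by
        simp only [mul_assoc]
    _ = pureT (fun i => (gs i : Matrix (Fin k) (Fin k) F)) *
        pureT (fun i => (gs (σ.symm i) : Matrix (Fin k) (Fin k) F)) * (permT σ * permT σ) := by
        rw [permT_pureT]; simp only [mul_assoc]
    _ = _ := by rw [permT_permT, hσ, permT_one, mul_one]

end Cfsg.Agent.Lib.Helper35.OAsch
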