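import Cfsg.Agent.Lib.Helper21.OAsch.Defs2

set_option autoImplicit false

namespace Cfsg.Agent.Lib.Helper35.OAsch

open Cfsg Cfsg.Geo Matrix Cfsg.Agent.Lib.Helper13.Asch Cfsg.Agent.Lib.Helper21.Asch
  Cfsg.Agent.Lib.Helper21.OAsch
open scoped Kronecker MatrixGroups

variable {ι : Type} [Fintype ι] [DecidableEq ι] {F : Type*} [Field F]
variable {Q : (ι → F) → F} {G : Matrix ι ι F}

/-- a matrix for which every vector is an eigenvector is scalar -/
theorem scalar_of_all_eigen {k : ℕ} (A : Matrix (Fin k) (Fin k) F)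
    (h : ∀ u : Fin k → F, ∃ c : F, A *ᵥ u = c • u) : ∃ α : F, A = α • (1 : Matrix (Fin k) (Fin k) F) := by
  rcases Nat.eq_zero_or_pos k with rfl | hk
  · exact ⟨0, by ext i; exact i.elim0⟩
  choose c hc using h
  let i0 : Fin k := ⟨0, hk⟩
  have hcol : ∀ p i, A p i = c (Pi.single i 1) * (if p = i then 1 else 0) := by
    intro p i
    have := congrFun (hc (Pi.single i 1)) p
    rw [Matrix.mulVec_single_one] at this
    simpa [Pi.single_apply] using this
  have heq : ∀ i j, c (Pi.single i 1) = c (Pi.single j 1) := by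
    intro i j
    by_cases hij : i = j
    · rw [hij]
    have h1 := hc (Pi.single i 1 + Pi.single j 1)
    rw [Matrix.mulVec_add, hc, hc] at h1
    have h2 := congrFun h1 i
    have h3 := congrFun h1 j
    simp [Pi.single_apply, hij, Ne.symm hij] at h2 h3
    rw [h2, h3]
  refine ⟨c (Pi.single i0 1), ?_⟩
  ext p i
  rw [hcol, heq i i0, Matrix.smul_apply, Matrix.one_apply, smul_eq_mul]

/-- the pure tensor of two vectors -/
def tens {k : ℕ} (u v : Fin k → F) : (Fin 2 → Fin k) → F := fun x => u (x 0) * v (x 1)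

theorem pureT_tens {k : ℕ} (f : Fin 2 → Matrix (Fin k) (Fin k) F) (u v : Fin k → F) :
    pureT f *ᵥ tens u v = tens (f 0 *ᵥ u) (f 1 *ᵥ v) := by
  funext x
  simp only [Matrix.mulVec, dotProduct, tens, pureT_apply, Fin.prod_univ_two]
  rw [Finset.sum_mul_sum, ← Finset.sum_product', Finset.univ_product_univ]
  rw [← (finTwoArrowEquiv (Fin k)).sum_comp]
  refine Finset.sum_congr rfl fun y _ => ?_
  simp [finTwoArrowEquiv]
  ring

theorem exists_meet {k : ℕ} (hk : 3 ≤ k) (W : Submodule F ((Fin 2 → Fin k) → F))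
    (hW : k * k ≤ Module.finrank F W + 2) (T : (Fin k → F) →ₗ[F] ((Fin 2 → Fin k) → F))
    (hT : Function.Injective T) : ∃ v, v ≠ 0 ∧ T v ∈ W := by
  have h1 : Module.finrank F (LinearMap.range T) = k := by
    rw [LinearMap.finrank_range_of_inj hT, Module.finrank_fin_fun]
  have hne : LinearMap.range T ⊓ W ≠ ⊥ := by
    intro hbot
    have h2 := Submodule.finrank_sup_add_finrank_inf_eq (LinearMap.range T) W
    rw [hbot, finrank_bot, h1] at h2
    have h3 : Module.finrank F ↥(LinearMap.range T ⊔ W) ≤ Module.finrank F ((Fin 2 → Fin k) → F) :=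
      Submodule.finrank_le _
    rw [Module.finrank_fintype_fun_eq_card] at h3
    simp only [Fintype.card_pi, Fintype.card_fin, Finset.prod_const, Finset.card_univ] at h3
    have : k ^ 2 = k * k := by ring
    omega
  obtain ⟨z, hz, hz0⟩ := Submodule.exists_mem_ne_zero_of_ne_bot hne
  obtain ⟨⟨v, rfl⟩, hzW⟩ := hz
  exact ⟨v, fun h => hz0 (by rw [h, map_zero]), hzW⟩

theorem scalar_of_pure_fix {k : ℕ} (hk : 3 ≤ k) (gs : Fin 2 → GL (Fin k) F)
    (W : Submodule F ((Fin 2 → Fin k) → F)) (hW : k * k ≤ Module.finrank F W + 2)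
    (hfix : ∀ x ∈ W, pureT (fun i => (gs i : Matrix (Fin k) (Fin k) F)) *ᵥ x = x) :
    pureT (fun i => (gs i : Matrix (Fin k) (Fin k) F)) = 1 := by
  have hunit : ∀ (i : Fin 2) (v : Fin k → F), v ≠ 0 → (gs i : Matrix (Fin k) (Fin k) F) *ᵥ v ≠ 0 := by
    intro i v hv h
    apply hv
    have e2 : ((gs i)⁻¹ : GL (Fin k) F).1 * (gs i : Matrix (Fin k) (Fin k) F) = 1 := by
      rw [← Units.val_mul, inv_mul_cancel, Units.val_one]
    calc v = (((gs i)⁻¹ : GL (Fin k) F).1 * (gs i : Matrix (Fin k) (Fin k) F)) *ᵥ v := by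
          rw [e2, Matrix.one_mulVec]
      _ = 0 := by rw [← Matrix.mulVec_mulVec, h, Matrix.mulVec_zero]
  -- 
  obtain ⟨α, hα⟩ := scalar_of_all_eigen (gs 0 : Matrix (Fin k) (Fin k) F) (by
    intro u
    by_cases hu : u = 0
    · exact ⟨0, by rw [hu, Matrix.mulVec_zero, smul_zero]⟩
    obtain ⟨p0, hp0⟩ := Function.ne_iff.1 hu
    let T : (Fin k → F) →ₗ[F] ((Fin 2 → Fin k) → F) :=
      { toFun := fun v => tens u v
        map_add' := by intro a b; funext x; simp [tens, mul_add]
        map_smul' := by intro c a; funext x; simp [tens]; ring }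
    have hT : Function.Injective T := by
      intro a b hab
      funext q
      have := congrFun hab ![p0, q]
      simp only [T, LinearMap.coe_mk, AddHom.coe_mk, tens, Matrix.cons_val_zero,
        Matrix.cons_val_one] at this
      exact mul_left_cancel₀ hp0 this
    obtain ⟨v, hv, hvW⟩ := exists_meet hk W hW T hT
    have h1 := hfix _ hvW
    have h2 : tens ((gs 0 : Matrix (Fin k) (Fin k) F) *ᵥ u) ((gs 1 : Matrix (Fin k) (Fin k) F) *ᵥ v)
        = tens u v := by
      exact (pureT_tens (fun i => (gs i : Matrix (Fin k) (Fin k) F)) u v).symm.trans h1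
    obtain ⟨q, hq⟩ := Function.ne_iff.1 (hunit 1 v hv)
    refine ⟨v q / ((gs 1 : Matrix (Fin k) (Fin k) F) *ᵥ v) q, ?_⟩
    funext p
    have h3 := congrFun h2 ![p, q]
    simp only [tens, Matrix.cons_val_zero, Matrix.cons_val_one] at h3
    rw [Pi.smul_apply, smul_eq_mul]
    simp only [Pi.zero_apply] at hq
    field_simp
    linear_combination h3)
  obtain ⟨β, hβ⟩ := scalar_of_all_eigen (gs 1 : Matrix (Fin k) (Fin k) F) (by
    intro v
    by_cases hv : v = 0
    · exact ⟨0, by rw [hv, Matrix.mulVec_zero, smul_zero]⟩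
    obtain ⟨q0, hq0⟩ := Function.ne_iff.1 hv
    let T : (Fin k → F) →ₗ[F] ((Fin 2 → Fin k) → F) :=
      { toFun := fun u => tens u v
        map_add' := by intro a b; funext x; simp [tens, add_mul]
        map_smul' := by intro c a; funext x; simp [tens]; ring }
    have hT : Function.Injective T := by
      intro a b hab
      funext p
      have := congrFun hab ![p, q0]
      simp only [T, LinearMap.coe_mk, AddHom.coe_mk, tens, Matrix.cons_val_zero,
        Matrix.cons_val_one] at this
      exact mul_right_cancel₀ hq0 this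
    obtain ⟨u, hu, huW⟩ := exists_meet hk W hW T hT
    have h1 := hfix _ huW
    have h2 : tens ((gs 0 : Matrix (Fin k) (Fin k) F) *ᵥ u) ((gs 1 : Matrix (Fin k) (Fin k) F) *ᵥ v)
        = tens u v := by
      exact (pureT_tens (fun i => (gs i : Matrix (Fin k) (Fin k) F)) u v).symm.trans h1
    obtain ⟨p, hp⟩ := Function.ne_iff.1 (hunit 0 u hu)
    refine ⟨u p / ((gs 0 : Matrix (Fin k) (Fin k) F) *ᵥ u) p, ?_⟩
    funext q
    have h3 := congrFun h2 ![p, q]
    simp only [tens, Matrix.cons_val_zero, Matrix.cons_val_one] at h3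
    rw [Pi.smul_apply, smul_eq_mul]
    simp only [Pi.zero_apply] at hp
    field_simp
    linear_combination h3)
  have hpure : pureT (fun i => (gs i : Matrix (Fin k) (Fin k) F)) =
      (α * β) • (1 : Matrix (Fin 2 → Fin k) (Fin 2 → Fin k) F) := by
    ext x y
    rw [pureT_apply, Fin.prod_univ_two, hα, hβ]
    simp only [Matrix.smul_apply, Matrix.one_apply, smul_eq_mul]
    by_cases hxy : x = y
    · subst hxy; simp
    · rw [if_neg hxy]
      obtain ⟨i, hi⟩ := Function.ne_iff.1 hxy
      fin_cases i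
      · simp at hi; simp [hi]
      · simp at hi; simp [hi]
  have hWne : W ≠ ⊥ := by
    intro h
    rw [h, finrank_bot] at hW
    nlinarith
  obtain ⟨z, hz, hz0⟩ := Submodule.exists_mem_ne_zero_of_ne_bot hWne
  have h4 := hfix z hz
  rw [hpure, Matrix.smul_mulVec, Matrix.one_mulVec] at h4
  obtain ⟨x, hx⟩ := Function.ne_iff.1 hz0
  have h5 := congrFun h4 x
  rw [Pi.smul_apply, smul_eq_mul] at h5
  have h6 : α * β = 1 := by
    have : (α * β - 1) * z x = 0 := by linear_combination h5
    rcases mul_eq_zero.1 this with h | h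
    · linear_combination h
    · exact absurd h hx
  rw [hpure, h6, one_smul]

end Cfsg.Agent.Lib.Helper35.OAsch
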